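import Cfsg.Agent.LV.T.Box
import Cfsg.Agent.LV.EP.Quot

/-!
# The Hadamard quotient: box K of the level theorem (project LV; helper89)
-/

set_option autoImplicit false
set_option linter.dupNamespace false

namespace Cfsg.Agent.LV.T

open Cfsg Polynomial

theorem boxK : BoxK := by
  intro p hp e he H _ _ E a D hE hD h1 h
  refine Cfsg.Agent.LV.EP.gen_of_int (A := fun m g => (a m g : ℂ)) (p := p) (q := p ^ e) hE hD h1 hp.out
    (dvd_pow_self p he.ne') (fun m hm g => ?_) (fun m _ g => ⟨_, rfl⟩) (pow_ne_zero _ hp.out.ne_zero)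
  rw [h m hm g, Cfsg.Agent.LV.EP.aeval_nat, Nat.cast_pow, Int.cast_mul]

end Cfsg.Agent.LV.T
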